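import Cfsg.Agent.H574.RV.OctOm
import Cfsg.Agent.H574.RV.OctSol
import Cfsg.Agent.H561.D4.Hall

/-!
# S4311, the row `PΩ₈⁺(q)`: the class of the Hall subgroups with `O₂ ≠ 1` is invariant (helper574)

`fixC_of_twoN`: without the boxes A, B1, B2.
-/

set_option autoImplicit false
set_option linter.unusedSectionVars false

namespace Cfsg.Agent.H574.RV.Oct

open Module QuadraticMap Cfsg.Agent.H167.OP Cfsg.Agent.H170.HL Cfsg.Agent.H170.HL.OmRow Cfsg.Agent.H556.Om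
open Cfsg Subgroup Cfsg.Agent.H485.RV Cfsg.Agent.H561.RV Cfsg.Agent.H561.D4
open scoped Pointwise

universe u

variable {F : Type} [Field F] [Finite F] {ι : Type} [Fintype ι] [DecidableEq ι] {Q : QuadraticForm F (ι → F)}

set_option maxHeartbeats 2000000 in
/-- `L` permutes the planes -/
theorem planes_of_NTwo (hQ : GoodQ Q) {L : Subgroup (Cfsg.Omega F (⇑Q))} {B B' : Fin 4 → ι → F} {e : A8 → ι → F}
    {y : Fin 4 → L} {w : L} (hC : Conf ((rep (inc (⇑Q))).comp L.subtype) (polarBilin Q) e B B' y w) (hN : NTwo L)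
    (g : L) (i : Fin 4) : ∃ j, (U (F := F) B B' i).map (rep (inc (⇑Q)) (g : Cfsg.Omega F (⇑Q))) = U B B' j := by
  have hfin : Finite (Cfsg.Omega F (⇑Q)) := inferInstance
  have h2F : Fact (Nat.Prime 2) := ⟨Nat.prime_two⟩
  obtain ⟨N, hNL, hN2, hNn, n, hnN, hnZ⟩ := hN
  let q : Cfsg.Omega F (⇑Q) →* Cfsg.POmega F (⇑Q) := QuotientGroup.mk' (Subgroup.center (Cfsg.Omega F (⇑Q)))
  have hq1 : ∀ k, q k = 1 ↔ k ∈ Subgroup.center (Cfsg.Omega F (⇑Q)) := fun k => QuotientGroup.eq_one_iff k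
  have hcen : ∀ k : Cfsg.Omega F (⇑Q), k ∈ Subgroup.center (Cfsg.Omega F (⇑Q)) ↔ inc (⇑Q) k = 1 ∨ inc (⇑Q) k = -1 :=
    fun k => Cfsg.Agent.LieClassical.OmegaCenter.mem_center_omega_iff Q hQ.nd hQ.card hQ.sing k
  have hact : ∀ k : Cfsg.Omega F (⇑Q), q k = 1 →
      (∀ v, rep (inc (⇑Q)) k v = v) ∨ ∀ v, rep (inc (⇑Q)) k v = -v := by
    intro k hk
    rcases (hcen k).mp ((hq1 k).mp hk) with h | h
    · left
      intro v
      rw [rep_apply, h, Matrix.one_mulVec]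
    · right
      intro v
      rw [rep_apply, h, Matrix.neg_mulVec, Matrix.one_mulVec]
  have hact' : ∀ k : Cfsg.Omega F (⇑Q), (∀ v, rep (inc (⇑Q)) k v = -v) → q k = 1 := by
    intro k hk
    rw [hq1, hcen]
    right
    apply Matrix.toLin'.injective
    apply LinearMap.ext
    intro v
    rw [Matrix.toLin'_apply, Matrix.toLin'_apply, Matrix.neg_mulVec, Matrix.one_mulVec]
    exact hk v
  let Nb : Subgroup (Cfsg.POmega F (⇑Q)) := N.map q
  have hNb2 : IsPGroup 2 Nb := hN2.map q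
  have hNbn : ∀ g ∈ L, ∀ b ∈ Nb, q g * b * (q g)⁻¹ ∈ Nb := by
    rintro g hg _ ⟨x, hx, rfl⟩
    exact ⟨g * x * g⁻¹, hNn g hg x hx, by rw [map_mul, map_mul, map_inv]⟩
  have hnt : Nontrivial Nb := by
    refine ⟨⟨q n, n, hnN, rfl⟩, 1, fun h => hnZ ?_⟩
    rw [← hq1]
    exact congrArg Subtype.val h
  have hfinS : Finite (Cfsg.POmega F (⇑Q)) := inferInstance
  have hcnt : Nontrivial (Subgroup.center Nb) := hNb2.center_nontrivial
  have hc2 : 2 ∣ Nat.card (Subgroup.center Nb) := by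
    have h1 : IsPGroup 2 (Subgroup.center Nb) := hNb2.to_subgroup _
    obtain ⟨m, hm, hcard⟩ := h1.nontrivial_iff_card.mp hcnt
    rw [hcard]
    exact dvd_pow_self 2 hm.ne'
  obtain ⟨c, hc⟩ := exists_prime_orderOf_dvd_card' (G := Subgroup.center Nb) 2 hc2
  have hcc : ((c : Nb) : Cfsg.POmega F (⇑Q)) * (c : Nb) = 1 := by
    have h1 : c ^ 2 = 1 := by rw [← hc, pow_orderOf_eq_one]
    rw [pow_two] at h1
    exact congrArg (fun x : Subgroup.center Nb => ((x : Nb) : Cfsg.POmega F (⇑Q))) h1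
  have hc1 : ((c : Nb) : Cfsg.POmega F (⇑Q)) ≠ 1 := by
    intro h1
    have h3 : c = 1 := Subtype.ext (Subtype.ext h1)
    rw [h3, orderOf_one] at hc
    exact absurd hc (by norm_num)
  -- the normal subgroup
  let A : Subgroup L :=
    { carrier := {x | q x ∈ Nb ∧ q x * q x = 1 ∧ ∀ b ∈ Nb, q x * b = b * q x}
      one_mem' := by
        show q 1 ∈ Nb ∧ q 1 * q 1 = 1 ∧ ∀ b ∈ Nb, q 1 * b = b * q 1
        rw [map_one]
        exact ⟨Nb.one_mem, one_mul 1, fun b _ => by rw [one_mul, mul_one]⟩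
      mul_mem' := by
        rintro a b ⟨ha, ha1, ha2⟩ ⟨hb, hb1, hb2⟩
        show q (a * b) ∈ Nb ∧ q (a * b) * q (a * b) = 1 ∧ ∀ t ∈ Nb, q (a * b) * t = t * q (a * b)
        rw [map_mul]
        refine ⟨Nb.mul_mem ha hb, ?_, fun t ht => ?_⟩
        · have h3 := ha2 _ hb
          calc q a * q b * (q a * q b) = q a * q b * (q b * q a) := by rw [h3]
            _ = q a * (q b * q b) * q a := by group
            _ = 1 := by rw [hb1, mul_one, ha1]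
        · rw [mul_assoc, hb2 t ht, ← mul_assoc, ha2 t ht, mul_assoc]
      inv_mem' := by
        rintro a ⟨ha, ha1, ha2⟩
        show q (a : Cfsg.Omega F (⇑Q))⁻¹ ∈ Nb ∧ q (a : Cfsg.Omega F (⇑Q))⁻¹ * q (a : Cfsg.Omega F (⇑Q))⁻¹ = 1 ∧
          ∀ t ∈ Nb, q (a : Cfsg.Omega F (⇑Q))⁻¹ * t = t * q (a : Cfsg.Omega F (⇑Q))⁻¹
        rw [map_inv]
        have h3 : (q a)⁻¹ = q a := inv_eq_of_mul_eq_one_left ha1
        rw [h3]
        exact ⟨ha, ha1, ha2⟩ }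
  have hAn : A.Normal := by
    refine ⟨fun a ha g => ?_⟩
    obtain ⟨ha, ha1, ha2⟩ := ha
    show q (g * a * (g : Cfsg.Omega F (⇑Q))⁻¹) ∈ Nb ∧ q (g * a * (g : Cfsg.Omega F (⇑Q))⁻¹) *
      q (g * a * (g : Cfsg.Omega F (⇑Q))⁻¹) = 1 ∧
      ∀ t ∈ Nb, q (g * a * (g : Cfsg.Omega F (⇑Q))⁻¹) * t = t * q (g * a * (g : Cfsg.Omega F (⇑Q))⁻¹)
    rw [map_mul, map_mul, map_inv]
    refine ⟨hNbn g g.2 _ ha, ?_, fun t ht => ?_⟩
    · calc q g * q a * (q g)⁻¹ * (q g * q a * (q g)⁻¹) = q g * (q a * q a) * (q g)⁻¹ := by group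
        _ = 1 := by rw [ha1, mul_one, mul_inv_cancel]
    · have h1 := hNbn (g : Cfsg.Omega F (⇑Q))⁻¹ (L.inv_mem g.2) t ht
      rw [map_inv, inv_inv] at h1
      have h3 := ha2 _ h1
      calc q g * q a * (q g)⁻¹ * t = q g * (q a * ((q g)⁻¹ * t * q g)) * (q g)⁻¹ := by group
        _ = q g * (((q g)⁻¹ * t * q g) * q a) * (q g)⁻¹ := by rw [h3]
        _ = t * (q g * q a * (q g)⁻¹) := by group
  obtain ⟨x₀, hx₀N, hx₀⟩ : ∃ x ∈ N, q x = ((c : Nb) : Cfsg.POmega F (⇑Q)) := (c : Nb).2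
  have hx₀A : (⟨x₀, hNL hx₀N⟩ : L) ∈ A := by
    show q x₀ ∈ Nb ∧ q x₀ * q x₀ = 1 ∧ ∀ b ∈ Nb, q x₀ * b = b * q x₀
    rw [hx₀]
    refine ⟨(c : Nb).2, hcc, fun b hb => ?_⟩
    exact (congrArg Subtype.val (Subgroup.mem_center_iff.mp c.2 ⟨b, hb⟩)).symm
  have hρ : ∀ (g : L) (v : ι → F), ((rep (inc (⇑Q))).comp L.subtype) g v = rep (inc (⇑Q)) (g : Cfsg.Omega F (⇑Q)) v :=
    fun _ _ => rfl
  have m1 : ∀ x ∈ A, (∀ v, ((rep (inc (⇑Q))).comp L.subtype) x (((rep (inc (⇑Q))).comp L.subtype) x v) = v) ∨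
      ∀ v, ((rep (inc (⇑Q))).comp L.subtype) x (((rep (inc (⇑Q))).comp L.subtype) x v) = -v := by
    intro x hx
    have h1 : q ((x : Cfsg.Omega F (⇑Q)) * x) = 1 := by rw [map_mul]; exact hx.2.1
    simp only [hρ, ← rm]
    exact hact _ h1
  have m2 : ∀ x ∈ A, ∀ u ∈ A, (∀ v, ((rep (inc (⇑Q))).comp L.subtype) x (((rep (inc (⇑Q))).comp L.subtype) u v) =
      ((rep (inc (⇑Q))).comp L.subtype) u (((rep (inc (⇑Q))).comp L.subtype) x v)) ∨
      ∀ v, ((rep (inc (⇑Q))).comp L.subtype) x (((rep (inc (⇑Q))).comp L.subtype) u v) =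
      -((rep (inc (⇑Q))).comp L.subtype) u (((rep (inc (⇑Q))).comp L.subtype) x v) := by
    intro x hx z hz
    have h1 : q ((x : Cfsg.Omega F (⇑Q)) * z * ((z : Cfsg.Omega F (⇑Q)) * x)⁻¹) = 1 := by
      rw [map_mul, map_mul, map_inv, map_mul, hx.2.2 _ hz.1, mul_inv_cancel]
    have h3 : ∀ v, rep (inc (⇑Q)) ((x : Cfsg.Omega F (⇑Q)) * z * ((z : Cfsg.Omega F (⇑Q)) * x)⁻¹)
        (rep (inc (⇑Q)) (z : Cfsg.Omega F (⇑Q)) (rep (inc (⇑Q)) (x : Cfsg.Omega F (⇑Q)) v)) =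
        rep (inc (⇑Q)) (x : Cfsg.Omega F (⇑Q)) (rep (inc (⇑Q)) (z : Cfsg.Omega F (⇑Q)) v) := by
      intro v
      rw [← rm, ← rm, ← rm]
      congr 2
      group
    simp only [hρ]
    rcases hact _ h1 with h4 | h4
    · left
      intro v
      rw [← h3, h4]
    · right
      intro v
      rw [← h3, h4]
  have m3 : ¬ ∀ v, ((rep (inc (⇑Q))).comp L.subtype) ⟨x₀, hNL hx₀N⟩ v = v := by
    intro h1
    simp only [hρ] at h1
    have h3 : x₀ = 1 := rep_inj (LinearMap.ext fun v => by rw [r1]; exact h1 v)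
    rw [h3, map_one] at hx₀
    exact hc1 hx₀.symm
  have m4 : ¬ ∀ v, ((rep (inc (⇑Q))).comp L.subtype) ⟨x₀, hNL hx₀N⟩ v = -v := by
    intro h1
    simp only [hρ] at h1
    have h3 := hact' x₀ h1
    rw [h3] at hx₀
    exact hc1 hx₀.symm
  obtain ⟨j, hj⟩ := hC.main hAn m1 m2 hx₀A m3 m4 g i
  exact ⟨j, hj⟩

variable {S : Type u} [Group S] [Finite S] {π : Set ℕ}

/-- **the stabiliser of the fixed planes is solvable** -/
theorem stD_solvable {B B' : Fin 4 → ι → F} (hG : Gram (polarBilin Q) B B') :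
    Group.IsSolvable (StD Q (U (F := F) B B')) :=
  hG.solvable (ρ := (rep (inc (⇑Q))).comp (StD Q (U (F := F) B B')).subtype)
    (fun _ _ hab => Subtype.ext (rep_inj hab)) (fun g u v => polar_omega (g : Cfsg.Omega F (⇑Q)) u v)
    fun g i => g.2.1 i

/-- **Hall subgroups with `O₂ ≠ 1` are conjugate into the stabiliser of the fixed planes** -/
theorem exists_conj_StD (hq : Q8 Q) (h2π : 2 ∈ π) (h3π : 3 ∈ π) (e : S ≃* Cfsg.POmega F (⇑Q)) :
    ∃ U : Fin 4 → Submodule F (ι → F), Group.IsSolvable (StD Q U) ∧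
      ∀ H : Subgroup S, IsPiHall π H → TwoN H → ∃ s : S, (MulAut.conj s • H).comap (pr e) ≤ StD Q U := by
  have hfin : Finite (Cfsg.Omega F (⇑Q)) := inferInstance
  obtain ⟨E, hE⟩ := hq.frame
  obtain ⟨B, B', hG, R, hR3, hconf⟩ := exists_conf hq.gq hq.two hq.three hq.dim (by decide) hE
  refine ⟨U (F := F) B B', stD_solvable hG, fun H hH hT => ?_⟩
  have hK := hall_comap hq.gq e h2π hH
  obtain ⟨g, hg⟩ := exists_conj_r Nat.prime_three (hK.2 3 Nat.prime_three h3π) hR3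
  set s : S := (pr e g)⁻¹ with hs
  have hH' := isPiHall_smul hH (MulAut.conj s)
  have hT' := twoN_smul hT (MulAut.conj s)
  refine ⟨s, ?_⟩
  have hRL : R ≤ (MulAut.conj s • H).comap (pr e) := by
    intro x hx
    refine (Subgroup.mem_smul_pointwise_iff_exists _ _ _).2 ⟨pr e (g * x * g⁻¹), hg x hx, ?_⟩
    rw [MulAut.smul_def, MulAut.conj_apply, hs, map_mul, map_mul, map_inv]
    group
  have hL2 := (hall_comap hq.gq e h2π hH').2 2 Nat.prime_two h2π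
  obtain ⟨e', y, w, hC⟩ := hconf _ hRL hL2
  have hN := NTwo_of_twoN hq.gq e hT'
  intro x hx
  refine ⟨fun i => ?_, fun i => ?_⟩
  · exact planes_of_NTwo hq.gq hC hN ⟨x, hx⟩ i
  · exact planes_of_NTwo hq.gq hC hN (⟨x, hx⟩ : ((MulAut.conj s • H).comap (pr e) : Subgroup _))⁻¹ i

/-- **two Hall subgroups with `O₂ ≠ 1` are conjugate** -/
theorem conj_of_twoN (hq : Q8 Q) (h2π : 2 ∈ π) (h3π : 3 ∈ π) (e : S ≃* Cfsg.POmega F (⇑Q)) {H K : Subgroup S}
    (hH : IsPiHall π H) (hK : IsPiHall π K) (hTH : TwoN H) (hTK : TwoN K) : ∃ s : S, K = MulAut.conj s • H := by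
  have hfin : Finite (Cfsg.Omega F (⇑Q)) := inferInstance
  obtain ⟨U, hU, hconj⟩ := exists_conj_StD hq h2π h3π e
  obtain ⟨s, hs⟩ := hconj H hH hTH
  obtain ⟨t, ht⟩ := hconj K hK hTK
  have hH1 := hall_comap hq.gq e h2π (isPiHall_smul hH (MulAut.conj s))
  have hK1 := hall_comap hq.gq e h2π (isPiHall_smul hK (MulAut.conj t))
  have hof : ∀ Y : Subgroup (Cfsg.Omega F (⇑Q)), Y ≤ StD Q U → IsPiHall π Y → IsPiHallOf π Y (StD Q U) :=
    fun Y hY hh => ⟨hY, hh.1, fun r hr hrπ hd => hh.2 r hr hrπ (hd.trans ⟨_, (Subgroup.relIndex_mul_index hY).symm⟩)⟩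
  obtain ⟨m, -, hm⟩ := Cfsg.Agent.OddOrderLocal.HallPi.conj_of_isPiHallOf hU (hof _ hs hH1) (hof _ ht hK1)
  have h2 : MulAut.conj m • (MulAut.conj s • H).comap (pr e) = (MulAut.conj t • K).comap (pr e) := hm
  have h3 : ((MulAut.conj t • K).comap (pr e)).map (pr e) = MulAut.conj t • K :=
    map_comap_eq_self_of_surjective (pr_surjective e) _
  have h4 : ((MulAut.conj s • H).comap (pr e)).map (pr e) = MulAut.conj s • H :=
    map_comap_eq_self_of_surjective (pr_surjective e) _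
  have h5 : MulAut.conj t • K = MulAut.conj (pr e m) • MulAut.conj s • H := by
    rw [← h3, ← h2]
    conv_rhs => rw [← h4]
    ext y
    simp only [Subgroup.mem_map, Subgroup.mem_smul_pointwise_iff_exists]
    constructor
    · rintro ⟨_, ⟨x, hx, rfl⟩, rfl⟩
      exact ⟨pr e x, ⟨x, hx, rfl⟩, by simp⟩
    · rintro ⟨_, ⟨x, hx, rfl⟩, rfl⟩
      exact ⟨_, ⟨x, hx, rfl⟩, by simp⟩
  refine ⟨t⁻¹ * pr e m * s, ?_⟩
  rw [map_mul, map_mul, mul_smul, mul_smul, ← h5, map_inv, inv_smul_smul]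

/-- **a Hall subgroup with `O₂ ≠ 1` has an invariant class** -/
theorem fixC_of_twoN (hq : Q8 Q) (h2π : 2 ∈ π) (h3π : 3 ∈ π) (e : S ≃* Cfsg.POmega F (⇑Q)) {H : Subgroup S}
    (hH : IsPiHall π H) (hT : TwoN H) (φ : MulAut S) : FixC φ H := by
  obtain ⟨s, hs⟩ := conj_of_twoN hq h2π h3π e hH (isPiHall_smul hH φ) hT (twoN_smul hT φ)
  exact fixC_iff.2 ⟨s, hs⟩

/-- **the row, if some Hall subgroup has `O₂ ≠ 1`** -/
theorem srow_of_twoN (hq : Q8 Q) (h2π : 2 ∈ π) (h3π : 3 ∈ π) (e : S ≃* Cfsg.POmega F (⇑Q)) {H : Subgroup S}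
    (hH : IsPiHall π H) (hT : TwoN H) : SRow π S :=
  fun _ _ => ⟨H, hH, fun φ _ => fixC_of_twoN hq h2π h3π e hH hT φ⟩

end Cfsg.Agent.H574.RV.Oct
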