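import Cfsg.Agent.H574.RV.OctVec
import Cfsg.Agent.H556.OmGrp

/-!
# The configuration in `Ω₈⁺(q)` (helper574)

`exists_conf`: there are fixed planes `⟨B i, B' i⟩` and a 3-subgroup `R` of `Ω` such that every subgroup `L ≥ R` of odd
index carries the configuration `Conf`.
-/

set_option autoImplicit false
set_option linter.unusedSectionVars false

namespace Cfsg.Agent.H574.RV.Oct

open Module Cfsg.Agent.H556.Om QuadraticMap Cfsg.Agent.H167.OP Cfsg.Agent.H170.HL Cfsg.Agent.H170.HL.OmRow

/-! ### Two lemmas on groups -/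

/-- `r`-subgroups are conjugate into subgroups of index prime to `r` -/
theorem exists_conj_r {G : Type*} [Group G] [Finite G] {r : ℕ} (hr : r.Prime) {H P : Subgroup G} (hi : ¬ r ∣ H.index)
    (hP : IsPGroup r P) : ∃ g : G, ∀ x ∈ P, g * x * g⁻¹ ∈ H := by
  have : Fact r.Prime := ⟨hr⟩
  obtain ⟨P1, hP1⟩ := hP.exists_le_sylow
  obtain ⟨P2⟩ : Nonempty (Sylow r H) := inferInstance
  have h1 : IsPGroup r ((P2 : Subgroup H).map H.subtype) := P2.2.map _
  have h2 : ¬ r ∣ ((P2 : Subgroup H).map H.subtype).index := by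
    rw [Subgroup.index_map_subtype]
    intro hd
    rcases (hr.dvd_mul).mp hd with hd | hd
    · exact P2.not_dvd_index hd
    · exact hi hd
  obtain ⟨g, hg⟩ := MulAction.exists_smul_eq G P1 (h1.toSylow h2)
  refine ⟨g, fun x hx => ?_⟩
  have h3 : g * x * g⁻¹ ∈ g • P1 := by
    have := Subgroup.smul_mem_pointwise_smul x (MulAut.conj g) (P1 : Subgroup G) (hP1 hx)
    exact this
  rw [hg] at h3
  exact Subgroup.map_subtype_le _ h3

/-- the 3-group generated by the rotations and the permutation -/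
theorem three_group {G : Type*} [Group G] {y : Fin 4 → G} {w : G} (hy3 : ∀ i, y i * y i * y i = 1)
    (hyc : ∀ i j, y i * y j = y j * y i) (hw3 : w * w * w = 1) (hwy : ∀ i, w * y i = y (tau i) * w) :
    IsPGroup 3 (Subgroup.closure (Set.range y ∪ {w})) := by
  set T := Subgroup.closure (Set.range y) with hT
  have hTc : ∀ a ∈ T, ∀ b ∈ T, a * b = b * a := by
    have h1 : T ≤ Subgroup.centralizer (Set.range y) := by
      rw [hT, Subgroup.closure_le]
      rintro _ ⟨i, rfl⟩
      rw [SetLike.mem_coe, Subgroup.mem_centralizer_iff]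
      rintro _ ⟨j, rfl⟩
      exact hyc j i
    have h2 : T ≤ Subgroup.centralizer (T : Set G) := by
      rw [hT, Subgroup.closure_le]
      rintro _ ⟨i, rfl⟩
      rw [SetLike.mem_coe, Subgroup.mem_centralizer_iff]
      intro t ht
      exact (Subgroup.mem_centralizer_iff.mp (h1 ht) _ ⟨i, rfl⟩).symm
    intro a ha b hb
    exact Subgroup.mem_centralizer_iff.mp (h2 hb) a ha
  have hT3 : ∀ x ∈ T, x * x * x = 1 := by
    intro x hx
    rw [hT] at hx
    induction hx using Subgroup.closure_induction with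
    | mem x hx =>
      obtain ⟨i, rfl⟩ := hx
      exact hy3 i
    | one => simp
    | mul x z hx hz hx1 hz1 =>
      have h3 : Commute x z := hTc x hx z hz
      have h4 : x ^ 3 = 1 := by rw [pow_succ, pow_two, hx1]
      have h5 : z ^ 3 = 1 := by rw [pow_succ, pow_two, hz1]
      have h6 := h3.mul_pow 3
      rw [h4, h5, one_mul, pow_succ, pow_two] at h6
      exact h6
    | inv x hx hx1 =>
      have h4 : x ^ 3 = 1 := by rw [pow_succ, pow_two, hx1]
      have h5 : x⁻¹ ^ 3 = 1 := by rw [inv_pow, h4, inv_one]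
      rwa [pow_succ, pow_two] at h5
  have hTp : IsPGroup 3 T := by
    rintro ⟨x, hx⟩
    refine ⟨1, Subtype.ext ?_⟩
    show x ^ 3 ^ 1 = 1
    rw [pow_one, pow_succ, pow_two]
    exact hT3 x hx
  have hW : IsPGroup 3 (Subgroup.closure {w}) := by
    rintro ⟨x, hx⟩
    rw [Subgroup.mem_closure_singleton] at hx
    obtain ⟨n, hn⟩ := hx
    refine ⟨1, Subtype.ext ?_⟩
    show x ^ 3 ^ 1 = 1
    rw [← hn, pow_one, ← zpow_natCast, ← zpow_mul, mul_comm, zpow_mul]
    have h4 : w ^ ((3 : ℕ) : ℤ) = 1 := by rw [zpow_natCast, pow_succ, pow_two, hw3]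
    rw [h4, one_zpow]
  have hwT : ∀ x ∈ T, w * x * w⁻¹ ∈ T := by
    intro x hx
    rw [hT] at hx
    induction hx using Subgroup.closure_induction with
    | mem x hx =>
      obtain ⟨i, rfl⟩ := hx
      rw [hwy, mul_inv_cancel_right]
      exact Subgroup.subset_closure ⟨_, rfl⟩
    | one =>
      rw [mul_one, mul_inv_cancel]
      exact T.one_mem
    | mul x z _ _ hx1 hz1 =>
      have h3 : w * (x * z) * w⁻¹ = (w * x * w⁻¹) * (w * z * w⁻¹) := by group
      rw [h3]
      exact T.mul_mem hx1 hz1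
    | inv x _ hx1 =>
      have h3 : w * x⁻¹ * w⁻¹ = (w * x * w⁻¹)⁻¹ := by group
      rw [h3]
      exact T.inv_mem hx1
  rw [Subgroup.closure_union, ← hT]
  refine IsPGroup.to_sup_of_normal_left' hTp hW ?_
  rw [Subgroup.closure_le]
  rintro x hx
  rw [Set.mem_singleton_iff.mp hx, SetLike.mem_coe, Subgroup.mem_normalizer_iff]
  intro z
  refine ⟨hwT z, fun hz => ?_⟩
  have h3 := hwT _ (hwT _ hz)
  have h4 : w * (w * (w * z * w⁻¹) * w⁻¹) * w⁻¹ = (w * w * w) * z * (w * w * w)⁻¹ := by group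
  rw [h4, hw3, one_mul, inv_one, mul_one] at h3
  exact h3

/-! ### The 2-group -/

/-- the index group -/
abbrev A8 := ZMod 2 × ZMod 2 × ZMod 2

theorem add_self8 (a : A8) : a + a = 0 := by
  revert a
  decide

theorem sign_add (a : A8) : Equiv.Perm.sign (Equiv.addLeft a) = 1 := by
  revert a
  decide

section Om

variable {F : Type*} [Field F] {ι : Type} [Fintype ι] [DecidableEq ι] {Q : QuadraticForm F (ι → F)}

/-- signs and translations -/
def TG (h2 : (2 : F) ≠ 0) {e : A8 → ι → F} (hF : Frame (polarBilin Q) e) : Subgroup (Cfsg.Omega F (⇑Q)) where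
  carrier := {x | ∃ (s : A8 → F) (a : A8), (∀ j, s j * s j = 1) ∧
    rep (inc (⇑Q)) x = mono (polarBilin Q) e s (a + ·)}
  one_mem' := ⟨fun _ => 1, 0, fun _ => one_mul 1, by
    rw [map_one]
    exact (mono_one hF h2 (fun _ => rfl) fun j => zero_add j).symm⟩
  mul_mem' := by
    rintro x y ⟨s, a, hs, hx⟩ ⟨t, b, ht, hy⟩
    refine ⟨fun j => t j * s (b + j), a + b, fun j => ?_, ?_⟩
    · have h3 := hs (b + j)
      have h4 := ht j
      calc t j * s (b + j) * (t j * s (b + j)) = (t j * t j) * (s (b + j) * s (b + j)) := by ring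
        _ = 1 := by rw [h3, h4, one_mul]
    · rw [map_mul, hx, hy, mono_mul hF h2]
      congr 1
      funext j
      simp only [Function.comp, add_assoc]
  inv_mem' := by
    rintro x ⟨s, a, hs, hx⟩
    refine ⟨fun j => s (a + j), a, fun j => hs _, ?_⟩
    have h3 : mono (polarBilin Q) e (fun j => s (a + j)) (a + ·) * rep (inc (⇑Q)) x = 1 := by
      rw [hx, mono_mul hF h2]
      refine mono_one hF h2 (fun j => ?_) fun j => ?_
      · show s j * s (a + (a + j)) = 1
        rw [← add_assoc, add_self8, zero_add, hs]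
      · show a + (a + j) = j
        rw [← add_assoc, add_self8, zero_add]
    have h4 : rep (inc (⇑Q)) x * rep (inc (⇑Q)) x⁻¹ = 1 := by rw [← map_mul, mul_inv_cancel, map_one]
    calc rep (inc (⇑Q)) x⁻¹ = (mono (polarBilin Q) e (fun j => s (a + j)) (a + ·) * rep (inc (⇑Q)) x) *
          rep (inc (⇑Q)) x⁻¹ := by rw [h3, one_mul]
      _ = _ := by rw [mul_assoc, h4, mul_one]

theorem TG_isPGroup (h2 : (2 : F) ≠ 0) {e : A8 → ι → F} (hF : Frame (polarBilin Q) e) : IsPGroup 2 (TG h2 hF) := by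
  rintro ⟨x, s, a, hs, hx⟩
  refine ⟨2, Subtype.ext ?_⟩
  show x ^ 2 ^ 2 = 1
  apply rep_inj
  have h3 : rep (inc (⇑Q)) (x * x) = mono (polarBilin Q) e (fun j => s j * s (a + j)) id := by
    rw [map_mul, hx, mono_mul hF h2]
    congr 1
    funext j
    show a + (a + j) = j
    rw [← add_assoc, add_self8, zero_add]
  have h4 : x ^ 2 ^ 2 = (x * x) * (x * x) := by
    rw [pow_succ, pow_one, pow_mul, pow_two, pow_two]
  rw [h4, map_mul, h3, mono_mul hF h2, map_one]
  refine mono_one hF h2 (fun j => ?_) fun j => rfl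
  show s j * s (a + j) * (s j * s (a + j)) = 1
  calc s j * s (a + j) * (s j * s (a + j)) = (s j * s j) * (s (a + j) * s (a + j)) := by ring
    _ = 1 := by rw [hs, hs, one_mul]

theorem sg_sq (i j k : A8) : sg F i j k * sg F i j k = 1 := by
  unfold sg
  split_ifs <;> ring

theorem mono_sg {J : Type*} [Fintype J] [DecidableEq J] (h2 : (2 : F) ≠ 0) {e : J → ι → F}
    (hF : Frame (polarBilin Q) e) {i j : J} (hij : i ≠ j) (v : ι → F) : mono (polarBilin Q) e (sg F i j) id v =
      v - polarBilin Q (e i) v • e i - polarBilin Q (e j) v • e j := by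
  have h1 : mono (polarBilin Q) e (sg F i j) id = 1 - (polarBilin Q (e i)).smulRight (e i) -
      (polarBilin Q (e j)).smulRight (e j) := by
    refine ext_frame hF h2 (fun k => ?_) fun w hw => ?_
    · rw [mono_e hF h2, LinearMap.sub_apply, LinearMap.sub_apply, Module.End.one_apply, LinearMap.smulRight_apply,
        LinearMap.smulRight_apply, hF.form, hF.form]
      unfold sg
      by_cases hki : k = i
      · subst hki
        rw [if_pos (Or.inl rfl), if_pos rfl, if_neg hij.symm]
        simp only [id]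
        module
      · by_cases hkj : k = j
        · subst hkj
          rw [if_pos (Or.inr rfl), if_neg (fun h => hki h.symm), if_pos rfl]
          simp only [id]
          module
        · rw [if_neg (by tauto), if_neg (fun h => hki h.symm), if_neg (fun h => hkj h.symm)]
          simp only [id]
          module
    · rw [mono_orth hw, LinearMap.sub_apply, LinearMap.sub_apply, Module.End.one_apply, LinearMap.smulRight_apply,
        LinearMap.smulRight_apply, hw i, hw j]
      module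
  rw [h1, LinearMap.sub_apply, LinearMap.sub_apply, Module.End.one_apply, LinearMap.smulRight_apply,
    LinearMap.smulRight_apply]

/-- isometries of order 3 are in `Omega` -/
theorem exists_om (hQ : GoodQ Q) (h2 : (2 : F) ≠ 0) (z : Module.End F (ι → F)) (hz : z * z * z = 1)
    (hi : ∀ u v, polarBilin Q (z u) (z v) = polarBilin Q u v) :
    ∃ x : Cfsg.Omega F (⇑Q), rep (inc (⇑Q)) x = z ∧ x * x * x = 1 := by
  obtain ⟨A, hA⟩ := exists_of_iso (⇑Q) z (z * z) (by rw [← mul_assoc, hz]) hz (Q_eq_of h2 hi)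
  have hA3 : A ^ 3 = 1 := by
    apply rep_injective inc'_injective
    rw [map_pow, hA, map_one, pow_succ, pow_two, hz]
  refine ⟨⟨A, mem_omega_of_odd hQ (by decide : Odd 3) hA3⟩, hA, ?_⟩
  apply Subtype.ext
  show A * A * A = 1
  rw [← pow_two, ← pow_succ, hA3]

/-- **the configuration** -/
theorem exists_conf [Finite F] (hQ : GoodQ Q) (h2 : (2 : F) ≠ 0) (h3 : (3 : F) ≠ 0) (hd : Fintype.card ι = 8)
    {J : Type*} [Fintype J] [DecidableEq J] {E : J → ι → F} (hJ : Fintype.card J = 8) (hE : Frame (polarBilin Q) E) :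
    ∃ B B' : Fin 4 → ι → F, Gram (polarBilin Q) B B' ∧ ∃ R : Subgroup (Cfsg.Omega F (⇑Q)), IsPGroup 3 R ∧
      ∀ L : Subgroup (Cfsg.Omega F (⇑Q)), R ≤ L → ¬ 2 ∣ L.index → ∃ (e : A8 → ι → F) (y : Fin 4 → L) (w : L),
        Conf ((rep (inc (⇑Q))).comp L.subtype) (polarBilin Q) e B B' y w := by
  have hfin : Finite (Cfsg.Omega F (⇑Q)) := inferInstance
  have hfr : finrank F (ι → F) = 8 := by rw [Module.finrank_pi, hd]
  -- frames
  let ε : Fin 4 ⊕ Fin 4 ≃ J := Fintype.equivOfCardEq (by rw [hJ]; rfl)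
  let ε' : A8 ≃ J := Fintype.equivOfCardEq (by rw [hJ]; rfl)
  have hE1 : Frame (polarBilin Q) (E ∘ ε) := hE.comp ε.injective
  have hE2 : Frame (polarBilin Q) (E ∘ ε') := hE.comp ε'.injective
  obtain ⟨α, β, hαβ⟩ : ∃ a b : F, a * a + b * b = 3 := by
    classical
    have : Fintype F := Fintype.ofFinite F
    obtain ⟨a, b, hab⟩ := FiniteField.exists_root_sum_quadratic (R := F)
      (f := Polynomial.C 1 * Polynomial.X ^ 2 + Polynomial.C 0 * Polynomial.X + Polynomial.C (-3))
      (g := Polynomial.C 1 * Polynomial.X ^ 2 + Polynomial.C 0 * Polynomial.X + Polynomial.C 0)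
      (Polynomial.degree_quadratic one_ne_zero) (Polynomial.degree_quadratic one_ne_zero) (by
        have hchar : ringChar F ≠ 2 := by
          intro h
          apply h2
          have := ringChar.Nat.cast_ringChar (R := F)
          rw [h] at this
          exact_mod_cast this
        exact FiniteField.odd_card_of_char_ne_two hchar)
    refine ⟨a, b, ?_⟩
    simp only [Polynomial.eval_add, Polynomial.eval_mul, Polynomial.eval_pow, Polynomial.eval_C, Polynomial.eval_X]
      at hab
    linear_combination hab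
  have hs : ∀ {K : Type} [Fintype K] [DecidableEq K] {e : K → ι → F}, Fintype.card K = 8 → Frame (polarBilin Q) e →
      ∀ v, (∀ j, polarBilin Q (e j) v = 0) → v = 0 := by
    intro K _ _ e hK he v hv
    exact frame_span h2 he (by rw [hfr, hK]) hv
  have hG := gram h2 h3 polar_symm hE1 (hs rfl hE1) hαβ
  set B := b1 (E ∘ ε) with hB
  set B' := b2 (E ∘ ε) α β with hB'
  refine ⟨B, B', hG, ?_⟩
  -- the elements of order 3
  choose y hy hy3 using fun i => exists_om hQ h2 (Gram.Yl (polarBilin Q) B B' i) (hG.Yl_cube i) (hG.Yl_iso i)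
  obtain ⟨w, hw, hw3⟩ := exists_om hQ h2 (Gram.Wl (polarBilin Q) B B') hG.Wl_cube hG.Wl_iso
  refine ⟨Subgroup.closure (Set.range y ∪ {w}), three_group hy3 (fun i j => ?_) hw3 (fun i => ?_), ?_⟩
  · apply rep_inj
    rw [map_mul, map_mul, hy, hy, hG.Yl_comm]
  · apply rep_inj
    rw [map_mul, map_mul, hy, hy, hw, hG.Wl_Yl]
  intro L hRL hL
  have hyL : ∀ i, y i ∈ L := fun i => hRL (Subgroup.subset_closure (Or.inl ⟨i, rfl⟩))
  have hwL : w ∈ L := hRL (Subgroup.subset_closure (Or.inr rfl))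
  -- the 2-elements
  obtain ⟨k, hk⟩ := exists_conj_r Nat.prime_two hL (TG_isPGroup h2 hE2)
  set e : A8 → ι → F := fun j => rep (inc (⇑Q)) k ((E ∘ ε') j) with he
  have hF : Frame (polarBilin Q) e := hE2.map (polar_omega k)
  have hmono : ∀ {x : Cfsg.Omega F (⇑Q)} {s : A8 → F} {σ : A8 → A8},
      rep (inc (⇑Q)) x = mono (polarBilin Q) (E ∘ ε') s σ →
      rep (inc (⇑Q)) (k * x * k⁻¹) = mono (polarBilin Q) e s σ := by
    intro x s σ hx
    apply LinearMap.ext
    intro v
    rw [he, mono_comp (g := rep (inc (⇑Q)) k) (g' := rep (inc (⇑Q)) k⁻¹), mul_ap, mul_ap, hx]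
    · intro u v
      rw [← polar_omega k u, ap_inv]
    · intro v
      exact ap_inv _ k v
  have hρ : ∀ (g : L) (v : ι → F), ((rep (inc (⇑Q))).comp L.subtype) g v = rep (inc (⇑Q)) (g : Cfsg.Omega F (⇑Q)) v :=
    fun _ _ => rfl
  refine ⟨e, fun i => ⟨y i, hyL i⟩, ⟨w, hwL⟩, ?_⟩
  refine
    { two := h2
      three := h3
      dim := hfr
      inj := fun a b hab => Subtype.ext (rep_inj hab)
      symm := polar_symm
      nd := fun v hv => hQ.nd.2 v hv
      iso := fun g u v => polar_omega (g : Cfsg.Omega F (⇑Q)) u v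
      frame := hF
      span := hs rfl hF
      idx := by decide
      sg := ?_
      tr := ?_
      ne := ⟨0⟩
      BB := hG.BB
      BC := hG.BC
      CC := hG.CC
      oBB := hG.oBB
      oBC := hG.oBC
      oCC := hG.oCC
      Bspan := fun v => ⟨_, _, hG.expand v⟩
      yv := ?_
      wB := ?_
      wC := ?_ }
  · intro i j hij
    obtain ⟨t, ht⟩ := exists_sg hQ h2 hE2 hij
    refine ⟨⟨k * t * k⁻¹, hk t ⟨sg F i j, 0, sg_sq i j, ?_⟩⟩, fun v => ?_⟩
    · rw [ht]
      congr 1
      funext j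
      exact (zero_add j).symm
    · rw [hρ]
      show rep (inc (⇑Q)) (k * t * k⁻¹) v = _
      rw [hmono ht, mono_sg h2 hF hij]
  · intro i j
    obtain ⟨t, ht⟩ := exists_perm hQ h2 hE2 (sign_add (j + i))
    refine ⟨⟨k * t * k⁻¹, hk t ⟨fun _ => 1, j + i, fun _ => one_mul 1, ht⟩⟩, ?_⟩
    rw [hρ]
    show rep (inc (⇑Q)) (k * t * k⁻¹) (e i) = _
    rw [hmono ht, mono_e hF h2, one_smul]
    show e (j + i + i) = e j
    rw [add_assoc, add_self8, add_zero]
  · intro i v
    rw [hρ]
    show rep (inc (⇑Q)) (y i) v = _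
    rw [hy, Gram.Yl_apply]
  · intro i
    rw [hρ]
    show rep (inc (⇑Q)) w (B i) = _
    rw [hw, hG.Wl_B]
  · intro i
    rw [hρ]
    show rep (inc (⇑Q)) w (B' i) = _
    rw [hw, hG.Wl_C]

end Om

end Cfsg.Agent.H574.RV.Oct
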